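import Cfsg.Agent.Base
import Cfsg.Agent.Lib.MatConj.Invol

/-!
Powers in finite cyclic groups and finite fields.
-/

set_option autoImplicit false

namespace H65

theorem exists_pow_eq_iff_of_isCyclic {G : Type*} [CommGroup G] [IsCyclic G] [Finite G] (n : ℕ)
    (y : G) : (∃ x, x ^ n = y) ↔ y ^ (Nat.card G / (Nat.card G).gcd n) = 1 := by
  have h : (powMonoidHom n : G →* G).range =
      (powMonoidHom (Nat.card G / (Nat.card G).gcd n) : G →* G).ker := by
    apply Subgroup.eq_of_le_of_card_ge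
    · rintro _ ⟨x, rfl⟩
      rw [MonoidHom.mem_ker, powMonoidHom_apply, powMonoidHom_apply, ← pow_mul]
      apply orderOf_dvd_iff_pow_eq_one.mp
      refine (orderOf_dvd_natCard x).trans ?_
      rw [mul_comm]
      exact dvd_div_gcd_mul _ _
    · rw [IsCyclic.card_powMonoidHom_ker, IsCyclic.card_powMonoidHom_range]
      exact Nat.gcd_le_right _ (Nat.div_pos (Nat.gcd_le_left _ Nat.card_pos)
        (Nat.gcd_pos_of_pos_left _ Nat.card_pos))
  exact (SetLike.ext_iff.mp h y)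

theorem exists_pow_mul_eq_one_iff {F : Type*} [Field F] [Fintype F] (n : ℕ) {y : F}
    (hy : y ≠ 0) : (∃ c : F, c ≠ 0 ∧ c ^ n * y = 1) ↔
      y ^ ((Fintype.card F - 1) / (Fintype.card F - 1).gcd n) = 1 := by
  have h := exists_pow_eq_iff_of_isCyclic n (Units.mk0 y hy)⁻¹
  rw [Nat.card_units, Nat.card_eq_fintype_card, inv_pow, inv_eq_one, Units.ext_iff] at h
  refine Iff.trans ⟨?_, ?_⟩ (h.trans (by simp))
  · rintro ⟨c, hc, h⟩
    exact ⟨Units.mk0 c hc, Units.ext (by simpa using eq_inv_of_mul_eq_one_left h)⟩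
  · rintro ⟨x, hx⟩
    refine ⟨x, x.ne_zero, ?_⟩
    rw [← Units.val_pow_eq_pow_val, hx]
    simp [hy]

theorem padicValNat_div_gcd (p : ℕ) [Fact p.Prime] {N n : ℕ} (hN : N ≠ 0) (hn : n ≠ 0) :
    padicValNat p (N / N.gcd n) = padicValNat p N - min (padicValNat p N) (padicValNat p n) := by
  rw [padicValNat.div_of_dvd (Nat.gcd_dvd_left _ _), ← Nat.factorization_def _ Fact.out,
    ← Nat.factorization_def _ Fact.out, ← Nat.factorization_def _ Fact.out,
    Nat.factorization_gcd hN hn, Finsupp.inf_apply]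

theorem div_gcd_ne_zero {N : ℕ} (hN : N ≠ 0) (n : ℕ) : N / N.gcd n ≠ 0 :=
  (Nat.div_pos (Nat.gcd_le_left _ (Nat.pos_of_ne_zero hN))
    (Nat.gcd_pos_of_pos_left _ (Nat.pos_of_ne_zero hN))).ne'

end H65
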