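import Mathlib

/-!
Counting chains in a graded poset (Hessenberg determinant = Moebius function) and the Moebius
function of the submodule lattice of a finite semisimple `F[X]`-module.
-/

set_option autoImplicit false
open Finset

namespace H65.St

section Comb
variable {L : Type*} [PartialOrder L] [Fintype L] (d : L → ℕ)

def Ch {n : ℕ} (μ : Fin n → ℕ) (W : L) (c : Fin n → L) : Prop :=
  (∀ i j, i ≤ j → c j ≤ c i) ∧ (∀ j, c j ≤ W) ∧ ∀ j, d (c j) + ∑ k with k ≤ j, μ k = d W

noncomputable def Fl {n : ℕ} (μ : Fin n → ℕ) (W : L) : ℂ := Nat.card {c // Ch d μ W c}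

omit [Fintype L] in
theorem ch_cons {n : ℕ} (μ : Fin (n + 1) → ℕ) (W U : L) (c : Fin n → L) :
    Ch d μ W (Fin.cons U c) ↔ (U ≤ W ∧ d U + μ 0 = d W) ∧ Ch d (fun i => μ i.succ) U c := by
  simp only [Ch, Fin.forall_fin_succ, Fin.cons_zero, Fin.cons_succ, le_refl, Fin.zero_le,
    Fin.succ_le_succ_iff, sum_filter, Fin.sum_univ_succ, if_true, Fin.le_zero_iff,
    Fin.succ_ne_zero, if_false, sum_const_zero, add_zero, false_imp_iff, true_imp_iff,
    true_and, implies_true]
  exact ⟨fun ⟨⟨h1, h2⟩, ⟨h3, _⟩, h5, h6⟩ => ⟨⟨h3, h5⟩, h2, h1, fun j => by have := h6 j; omega⟩,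
    fun ⟨⟨h1, h2⟩, h3, h4, h5⟩ => ⟨⟨h4, h3⟩, ⟨h1, fun j => (h4 j).trans h1⟩, h2,
      fun j => by have := h5 j; omega⟩⟩

open Classical in
theorem fl_succ {n : ℕ} (μ : Fin (n + 1) → ℕ) (W : L) :
    Fl d μ W = ∑ U with U ≤ W ∧ d U + μ 0 = d W, Fl d (fun i => μ i.succ) U := by
  simp only [Fl, Nat.card_eq_fintype_card, Fintype.card_subtype, card_filter, sum_filter]
  push_cast
  rw [← (Fin.consEquiv fun _ => L).sum_comp, Fintype.sum_prod_type]
  refine sum_congr rfl fun U _ => ?_
  simp only [Fin.consEquiv, Equiv.coe_fn_mk, ch_cons]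
  split_ifs with h <;> simp [h]

omit [Fintype L] in
theorem fl_zero (μ : Fin 0 → ℕ) (W : L) : Fl d μ W = 1 := by
  simp [Fl, Ch]

/-- the Hessenberg determinant of flag numbers with shifted first column -/
noncomputable def E (n a : ℕ) (W : L) : ℂ := ∑ κ : Equiv.Perm (Fin n),
  if ∀ i, (κ i : ℕ) ≤ 1 + i then ((Equiv.Perm.sign κ : ℤ) : ℂ) *
    Fl d (fun i => 1 + i - κ i + if (κ i : ℕ) = 0 then a else 0) W else 0

open Classical in
theorem E_succ (hd : StrictMono d) (n a : ℕ) (W : L) : E d (n + 2) a W =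
    ∑ U with U ≤ W ∧ d U + (1 + a) = d W, E d (n + 1) 0 U - E d (n + 1) (a + 1) W := by
  have h1 : univ.filter (fun U => U ≤ W ∧ d U = d W) = {W} := by
    ext U
    simp only [mem_filter, mem_univ, true_and, mem_singleton]
    exact ⟨fun h => h.1.eq_or_lt.resolve_right fun e => (hd e).ne h.2, fun h => h ▸ ⟨le_rfl, rfl⟩⟩
  have h2 : ∀ j : Fin (n + 1), (Equiv.swap 0 (Fin.succ 0) j.succ : ℕ) =
      if (j : ℕ) = 0 then 0 else (j : ℕ) + 1 := fun j => by
    cases j using Fin.cases <;> simp [Equiv.swap_apply_def, Fin.ext_iff]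
  rw [E, ← Equiv.Perm.decomposeFin.symm.sum_comp, Fintype.sum_prod_type, Fin.sum_univ_succ,
    Fin.sum_univ_succ, sum_eq_zero (s := univ (α := Fin n)) fun p _ => sum_eq_zero fun e _ =>
      if_neg fun h => by simpa using h 0, add_zero, sub_eq_add_neg]
  simp only [E, ← sum_neg_distrib]
  rw [sum_comm]
  congr 1 <;> refine sum_congr rfl fun e _ => ?_
  · simp only [Fin.forall_fin_succ (n := n + 1), Equiv.Perm.decomposeFin_symm_apply_zero,
      Equiv.Perm.decomposeFin_symm_apply_succ, fl_succ (n := n + 1), Equiv.swap_self,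
      Equiv.refl_apply, Fin.val_succ, Equiv.Perm.decomposeFin.symm_sign, ← add_assoc]
    simp [mul_sum, sum_ite_irrel]
  · simp only [Fin.forall_fin_succ (n := n + 1), Equiv.Perm.decomposeFin_symm_apply_zero,
      Equiv.Perm.decomposeFin_symm_apply_succ, fl_succ (n := n + 1), h2, Fin.val_succ,
      Equiv.Perm.decomposeFin.symm_sign]
    rw [neg_ite, neg_zero, ← neg_mul]
    refine if_congr ⟨fun h i => ?_, fun h => ⟨le_rfl, fun i => ?_⟩⟩ ?_ rfl
    · have := h.2 i
      split_ifs at this <;> omega
    · have := h i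
      split_ifs <;> omega
    simp only [Fin.val_zero, add_zero, zero_add, Nat.sub_self, one_ne_zero, if_false, h1,
      sum_singleton, Fin.succ_ne_zero]
    congr 2
    · simp
    · ext i
      by_cases h : (e i : ℕ) = 0 <;> simp [h] <;> omega

open Classical in
theorem E_eq (hd : StrictMono d) [OrderBot L] (h0 : d ⊥ = 0) (Φ : L → ℂ) (h1 : Φ ⊥ = 1)
    (hΦ : ∀ W, W ≠ ⊥ → ∑ U with U ≤ W, Φ U = 0) (n : ℕ) :
    ∀ W, d W = n → E d n 0 W = (-1) ^ n * Φ W := by
  have hb : ∀ W, d W = 0 ↔ W = ⊥ := fun W =>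
    ⟨fun h => by_contra fun e => by have := hd (Ne.bot_lt e); omega, fun h => h ▸ h0⟩
  have key : ∀ n, (∀ a W, d W = n + 1 + a →
      E d (n + 1) a W = (-1) ^ n * ∑ U with U ≤ W ∧ d U ≤ n, Φ U) →
      ∀ W, d W = n + 1 → E d (n + 1) 0 W = (-1) ^ (n + 1) * Φ W := fun n h W hW => by
    have h2 := hΦ W fun e => by rw [← hb] at e; omega
    rw [← add_sum_erase _ _ (a := W) (by simp), add_eq_zero_iff_neg_eq] at h2
    rw [h 0 W hW, pow_succ, mul_assoc, neg_one_mul, h2]
    refine congrArg _ (sum_congr (ext fun U => ?_) fun _ _ => rfl)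
    simp only [mem_filter, mem_univ, true_and, mem_erase]
    exact ⟨fun h => ⟨fun e => by have := e ▸ h.2; omega, h.1⟩,
      fun h => ⟨h.2, by have := hd (h.2.lt_of_ne h.1); omega⟩⟩
  have main : ∀ n a W, d W = n + 1 + a →
      E d (n + 1) a W = (-1) ^ n * ∑ U with U ≤ W ∧ d U ≤ n, Φ U := fun n => by
    induction n with
    | zero =>
      intro a W hW
      have h2 : ∀ (P : L → Prop) [DecidablePred fun U => U ≤ W ∧ P U], (∀ U, P U ↔ d U = 0) →
          univ.filter (fun U => U ≤ W ∧ P U) = {⊥} := fun P _ hP => ext fun U => by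
          simp only [mem_filter, mem_univ, true_and, mem_singleton, hP, hb]
          exact ⟨fun h => h.2, fun h => ⟨h ▸ bot_le, h⟩⟩
      rw [h2 _ fun U => Nat.le_zero]
      simp [E, fl_succ, fl_zero, h1, h2 (fun U => d U + (1 + a) = d W) fun U => by omega]
    | succ n ih =>
      intro a W hW
      rw [E_succ d hd, ih (a + 1) W (by omega), sum_congr rfl fun U hU =>
        key n ih U (by have := (mem_filter.1 hU).2.2; omega), ← mul_sum, pow_succ, mul_assoc,
        mul_assoc, ← mul_sub, neg_one_mul, neg_one_mul, ← neg_add', sum_filter, sum_filter,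
        sum_filter, ← sum_add_distrib]
      refine congrArg _ (congrArg _ (sum_congr rfl fun U _ => ?_))
      by_cases h : U ≤ W
      · simp only [h, true_and]
        split_ifs <;> first | omega | simp
      · simp [h]
  cases n with
  | zero => exact fun W h => by simp [E, fl_zero, (hb W).1 h, h1]
  | succ n => exact key n (main n)

end Comb

section Mod
open Polynomial Module UniqueFactorizationMonoid
universe u
variable (F : Type*) [Field F]

/-- characteristic polynomial of `X` on an `F[X]`-module -/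
noncomputable def chi (N : Type*) [AddCommGroup N] [Module F N] [Module F[X] N]
    [IsScalarTower F F[X] N] [FiniteDimensional F N] : F[X] :=
  (Algebra.lsmul F F N (X : F[X])).charpoly

variable {F}
section
variable {N N' : Type*} [AddCommGroup N] [Module F N] [Module F[X] N] [IsScalarTower F F[X] N]
  [FiniteDimensional F N] [AddCommGroup N'] [Module F N'] [Module F[X] N']
  [IsScalarTower F F[X] N'] [FiniteDimensional F N']

instance (W : Submodule F[X] N) : FiniteDimensional F W :=
  .of_injective (W.subtype.restrictScalars F) Subtype.val_injective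

theorem chi_monic : (chi F N).Monic := LinearMap.charpoly_monic _

theorem chi_natDegree : (chi F N).natDegree = finrank F N := LinearMap.charpoly_natDegree _

theorem chi_congr (e : N ≃ₗ[F[X]] N') : chi F N = chi F N' := by
  rw [chi, ← (e.restrictScalars F).charpoly_conj]
  congr 1
  ext v
  simp

theorem chi_compl {A B : Submodule F[X] N} (h : IsCompl A B) : chi F N = chi F A * chi F B := by
  rw [← chi_congr (A.prodEquivOfIsCompl B h), chi, chi, chi, ← LinearMap.charpoly_prodMap]
  rfl

theorem chi_one [Subsingleton N] : chi F N = 1 :=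
  chi_monic.natDegree_eq_zero.1 (chi_natDegree.trans finrank_zero_of_subsingleton)

omit [FiniteDimensional F N] in
theorem aeval_lsmul (g : F[X]) (v : N) : aeval (Algebra.lsmul F F N (X : F[X])) g v = g • v := by
  rw [aeval_algHom_apply, aeval_X_left_apply, Algebra.lsmul_apply]

theorem simple_equiv [IsSimpleModule F[X] N] :
    Irreducible (chi F N) ∧ Nonempty (N ≃ₗ[F[X]] F[X] ⧸ Ideal.span {chi F N}) := by
  obtain ⟨I, hI, ⟨e⟩⟩ := isSimpleModule_iff_quot_maximal.1 ‹_›
  have h1 : chi F N ∈ I := by
    rw [← Ideal.Quotient.eq_zero_iff_mem, ← mul_one (chi F N), ← smul_eq_mul]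
    change chi F N • (1 : F[X] ⧸ I) = 0
    rw [← e.apply_symm_apply 1, ← map_smul, ← aeval_lsmul, chi, LinearMap.aeval_self_charpoly,
      LinearMap.zero_apply, map_zero]
  obtain ⟨f, rfl⟩ := (IsPrincipalIdealRing.principal I).principal
  change (Ideal.span {f}).IsMaximal at hI
  rw [Ideal.submodule_span_eq, Ideal.mem_span_singleton] at h1
  have h2 : f ≠ 0 := ne_zero_of_dvd_ne_zero chi_monic.ne_zero h1
  have h3 : Associated f (chi F N) := associated_of_dvd_of_natDegree_le h1 chi_monic.ne_zero
    (by rw [chi_natDegree, (e.restrictScalars F).finrank_eq]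
        exact finrank_quotient_span_eq_natDegree.le)
  exact ⟨h3.irreducible ((Ideal.span_singleton_prime h2).1 hI.isPrime).irreducible,
    ⟨e.trans (Submodule.quotEquivOfEq _ _ (Ideal.span_singleton_eq_span_singleton.2 h3))⟩⟩

variable [Fintype F] [DecidableEq F]

theorem card_hom_simple [IsSimpleModule F[X] N] [IsSimpleModule F[X] N'] :
    Nat.card (N →ₗ[F[X]] N') =
      Fintype.card F ^ ((chi F N').natDegree * if chi F N' = chi F N then 1 else 0) := by
  split_ifs with h
  · obtain ⟨e⟩ := (simple_equiv (F := F) (N := N)).2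
    rw [mul_one, chi_natDegree, ← Nat.card_eq_fintype_card, ← natCard_eq_pow_finrank,
      Nat.card_congr (e.arrowCongr (.refl _ N')).toEquiv]
    refine Nat.card_eq_of_bijective (fun φ => φ (Submodule.Quotient.mk 1)) ⟨fun φ ψ e => ?_,
      fun s => ⟨Submodule.liftQ _ (LinearMap.toSpanSingleton _ _ s) ?_, one_smul _ s⟩⟩
    · exact Submodule.linearMap_qext _ (LinearMap.ext_ring e)
    · rw [Ideal.span_le, Set.singleton_subset_iff, ← h]
      change chi F N' • s = 0
      rw [← aeval_lsmul, chi, LinearMap.aeval_self_charpoly, LinearMap.zero_apply]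
  · rw [mul_zero, pow_zero, Nat.card_eq_one_iff_unique]
    have h1 : ∀ φ : N →ₗ[F[X]] N', φ = 0 := fun φ => φ.bijective_or_eq_zero.resolve_left
      fun e => h (chi_congr (LinearEquiv.ofBijective φ e)).symm
    exact ⟨⟨fun φ ψ => (h1 φ).trans (h1 ψ).symm⟩, ⟨0⟩⟩

omit [Fintype F] in
theorem nf_mul {f g : F[X]} (hf : Irreducible f) (hm : f.Monic) (hg : g ≠ 0) :
    normalizedFactors (f * g) = f ::ₘ normalizedFactors g := by
  rw [normalizedFactors_mul hf.ne_zero hg, normalizedFactors_irreducible hf, hm.normalize_eq_self,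
    Multiset.singleton_add]

theorem card_hom [IsSimpleModule F[X] N'] (n : ℕ) : ∀ (N : Type u) [AddCommGroup N] [Module F N]
    [Module F[X] N] [IsScalarTower F F[X] N] [FiniteDimensional F N] [IsSemisimpleModule F[X] N],
    finrank F N = n → Nat.card (N →ₗ[F[X]] N') = Fintype.card F ^
      ((chi F N').natDegree * (normalizedFactors (chi F N)).count (chi F N')) := by
  induction n using Nat.strong_induction_on with | _ n ih
  intro N _ _ _ _ _ _ hn
  rcases IsSemisimpleModule.eq_bot_or_exists_simple_le (⊤ : Submodule F[X] N) with h | ⟨S, -, h⟩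
  · have := (Submodule.subsingleton_iff _).1 (subsingleton_of_bot_eq_top h.symm)
    simp [chi_one (N := N)]
  obtain ⟨W, hW⟩ := exists_isCompl S
  have h1 := (simple_equiv (F := F) (N := S)).1
  have h2 := congrArg natDegree (chi_compl hW)
  rw [chi_monic.natDegree_mul chi_monic] at h2
  rw [← Nat.card_congr (LinearMap.ofIsComplProdEquiv hW).toEquiv, Nat.card_prod, card_hom_simple,
    ih _ (by have := h1.natDegree_pos; simp only [chi_natDegree] at *; omega) W rfl, chi_compl hW,
    nf_mul h1 chi_monic chi_monic.ne_zero, Multiset.count_cons, ← pow_add, mul_add, add_comm]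

/-- the value of the Steinberg character -/
noncomputable def psi (g : F[X]) : ℂ := ∏ f ∈ (normalizedFactors g).toFinset,
  (-1 : ℂ) ^ ((f.natDegree - 1) * (normalizedFactors g).count f) * (Fintype.card F : ℂ) ^
    (f.natDegree * (normalizedFactors g).count f * ((normalizedFactors g).count f - 1) / 2)

theorem psi_mul {f g : F[X]} (hf : Irreducible f) (hm : f.Monic) (hg : g ≠ 0) :
    psi (f * g) = (-1) ^ (f.natDegree - 1) *
      (Fintype.card F : ℂ) ^ (f.natDegree * (normalizedFactors g).count f) * psi g := by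
  rw [psi, psi, nf_mul hf hm hg, Multiset.toFinset_cons, ← mul_prod_erase _ _ (mem_insert_self _ _),
    ← prod_insert_of_eq_one_if_notMem (a := f) (s := (normalizedFactors g).toFinset) fun h => by
      simp [Multiset.count_eq_zero.2 (mt Multiset.mem_toFinset.2 h)],
    ← mul_prod_erase _ _ (mem_insert_self _ _), Multiset.count_cons_self, ← mul_assoc]
  congr 1
  · generalize (normalizedFactors g).count f = m
    have : f.natDegree * (m + 1) * (m + 1 - 1) / 2 =
        f.natDegree * m + f.natDegree * m * (m - 1) / 2 := by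
      rw [add_comm (_ * m), ← Nat.add_mul_div_left _ _ two_pos]
      congr 1
      cases m <;> simp
      ring
    rw [this]
    ring
  · exact prod_congr rfl fun a ha => by rw [Multiset.count_cons_of_ne (ne_of_mem_erase ha)]

noncomputable def Phi (g : F[X]) : ℂ := (-1) ^ g.natDegree * psi g

open Classical in
theorem sum_top [IsSemisimpleModule F[X] N] [Fintype (Submodule F[X] N)] (S : Submodule F[X] N)
    [IsSimpleModule F[X] S] : ∑ W with W ⊔ S = ⊤, Phi (chi F W) = 0 := by
  obtain ⟨W, hW⟩ := exists_isCompl S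
  have h1 := (simple_equiv (F := F) (N := S)).1
  have h2 := isSimpleModule_iff_isAtom.1 ‹_›
  have h3 : Nat.card {U // IsCompl S U} = Nat.card (W →ₗ[F[X]] S) := by
    rw [Nat.card_congr S.isComplEquivProj]
    refine (Nat.card_eq_of_bijective (fun φ => ⟨LinearMap.ofIsCompl hW .id φ, by simp⟩)
      ⟨fun φ ψ e => ?_, fun φ => ⟨φ.1 ∘ₗ W.subtype, Subtype.ext
        (LinearMap.ofIsCompl_eq hW (fun u => (φ.2 u).symm) fun _ => rfl)⟩⟩).symm
    ext v
    simpa using congrArg (fun φ => (φ.1 v).1) e
  have h4 : (univ.filter fun U => U ⊔ S = ⊤).erase ⊤ = univ.filter fun U => IsCompl S U := by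
    ext U
    simp only [mem_erase, mem_filter, mem_univ, true_and]
    exact ⟨fun h => ⟨h2.not_le_iff_disjoint.1 fun e => h.1 (sup_eq_left.2 e ▸ h.2),
      codisjoint_iff.2 (sup_comm U S ▸ h.2)⟩, fun h => ⟨fun e => h2.1 (by
        simpa [e] using h.disjoint), h.symm.sup_eq_top⟩⟩
  rw [← add_sum_erase _ _ (a := ⊤) (by simp), h4, sum_congr rfl (g := fun _ => Phi (chi F W))
    fun U hU => congrArg _ (mul_left_cancel₀ h1.ne_zero ((chi_compl (mem_filter.1 hU).2).symm.trans
      (chi_compl hW))), sum_const, ← Fintype.card_subtype, ← Nat.card_eq_fintype_card, h3,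
    card_hom _ W rfl, chi_congr Submodule.topEquiv, chi_compl hW, Phi, Phi,
    psi_mul h1 chi_monic chi_monic.ne_zero, chi_monic.natDegree_mul chi_monic]
  obtain ⟨k, hk⟩ := Nat.exists_eq_add_of_lt h1.natDegree_pos
  rw [hk, nsmul_eq_mul, zero_add, Nat.add_sub_cancel]
  push_cast
  rcases neg_one_pow_eq_or ℂ k with h | h <;> simp [pow_add, h, mul_left_comm]

open Classical in
theorem sum_le [IsSemisimpleModule F[X] N] [Fintype (Submodule F[X] N)] (W : Submodule F[X] N)
    (h : W ≠ ⊥) : ∑ U with U ≤ W, Phi (chi F U) = 0 := by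
  obtain ⟨S, h1, h2⟩ := (IsSemisimpleModule.eq_bot_or_exists_simple_le W).resolve_left h
  rw [← sum_fiberwise_of_maps_to (t := univ.filter fun T => S ≤ T ∧ T ≤ W) (g := (· ⊔ S))
    fun U hU => by simpa [h1] using hU]
  refine sum_eq_zero fun T hT => ?_
  obtain ⟨h3, h4⟩ := (mem_filter.1 hT).2
  have := Fintype.ofInjective _ (Submodule.map_injective_of_injective T.subtype_injective)
  have : IsSimpleModule F[X] (S.comap T.subtype) :=
    IsSimpleModule.congr (Submodule.comapSubtypeEquivOfLe h3)
  refine Eq.trans (Eq.symm ?_) (sum_top (S.comap T.subtype))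
  refine sum_nbij' (fun U => U.map T.subtype) (fun U => U.comap T.subtype) ?_ ?_ ?_ ?_ fun U _ =>
    congrArg _ (chi_congr (U.equivMapOfInjective _ T.subtype_injective))
  · intro U hU
    have := congrArg (Submodule.map T.subtype) (mem_filter.1 hU).2
    rw [Submodule.map_sup, Submodule.map_comap_subtype, inf_eq_right.2 h3,
      Submodule.map_subtype_top] at this
    simpa [this] using (T.map_subtype_le U).trans h4
  · intro U hU
    have h5 := (mem_filter.1 hU).2
    refine mem_filter.2 ⟨mem_univ _, Submodule.map_injective_of_injective T.subtype_injective ?_⟩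
    rw [Submodule.map_sup, Submodule.map_comap_subtype, Submodule.map_comap_subtype,
      inf_eq_right.2 h3, inf_eq_right.2 (le_sup_left.trans h5.le), h5, Submodule.map_subtype_top]
  · exact fun U _ => Submodule.comap_map_eq_of_injective T.subtype_injective U
  · intro U hU
    rw [Submodule.map_comap_subtype, inf_eq_right.2 (le_sup_left.trans (mem_filter.1 hU).2.le)]

end
end Mod

end H65.St
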