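import Cfsg.Agent.Lib.LargeExtra.Types

/-! Quadratic functions over `F₂` with a given polarisation. -/

set_option autoImplicit false
open Cfsg Module QuadraticMap

namespace H65
section
variable {V : Type*} [AddCommGroup V] [Module (ZMod 2) V]

theorem zmod2_cases' (a : ZMod 2) : a = 0 ∨ a = 1 := by revert a; decide

theorem two_add_self (v : V) : v + v = 0 := by
  rw [← two_smul (ZMod 2) v]
  exact (show (2 : ZMod 2) = 0 from rfl) ▸ zero_smul _ v

/-- a function with the same polarisation as a quadratic form over `F₂` is a quadratic form. -/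
theorem exists_quad_of_polar (Q : QuadraticForm (ZMod 2) V) (q : V → ZMod 2)
    (hq : ∀ u v, q (u + v) = q u + q v + (Q (u + v) - Q u - Q v)) :
    ∃ Q' : QuadraticForm (ZMod 2) V, ⇑Q' = q ∧ ∀ u v, polar Q' u v = polar Q u v := by
  have h0 : q 0 = 0 := by
    have := hq 0 0
    simp only [add_zero, map_zero, sub_zero] at this
    linear_combination -this
  refine ⟨{ toFun := q
            toFun_smul := fun a x => ?_
            exists_companion' := ⟨polarBilin Q, fun x y => ?_⟩ }, rfl, fun u v => ?_⟩
  · rcases zmod2_cases' a with rfl | rfl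
    · simp [h0]
    · simp
  · rw [hq]; rfl
  · change q (u + v) - q u - q v = Q (u + v) - Q u - Q v
    rw [hq]; ring

theorem polar_self_two (Q : QuadraticForm (ZMod 2) V) (w : V) : polar Q w w = 0 := by
  rw [H66.polar_self', show (2 : ZMod 2) = 0 from rfl, zero_mul]

theorem gauss_translate [Fintype V] (Q : QuadraticForm (ZMod 2) V) (w : V) :
    H95.gauss (fun v => Q v + polar Q v w) = H95.sgn (Q w) * H95.gauss Q := by
  rw [H95.gauss, H95.gauss, Finset.mul_sum]
  refine Fintype.sum_equiv (Equiv.addRight w) _ _ fun v => ?_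
  simp only [Equiv.coe_addRight, H66.quad_add, H95.sgn_add]
  linear_combination (-H95.sgn (Q v) * H95.sgn (polar Q v w)) * H95.sgn_mul_self (Q w)

/-- the symplectic transvection along `w` -/
theorem exists_equiv_translate (Q : QuadraticForm (ZMod 2) V) {w : V} (hw : Q w = 0) :
    ∃ g : V ≃ₗ[ZMod 2] V, ∀ v, Q v + polar Q v w = Q (g v) := by
  let t : V →ₗ[ZMod 2] V := LinearMap.id + ((polarBilin Q).flip w).smulRight w
  have ht : ∀ v, t v = v + polar Q v w • w := fun v => rfl
  have htt : ∀ v, t (t v) = v := by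
    intro v
    rw [ht, ht, polar_add_left, polar_smul_left, polar_self_two, smul_zero, add_zero, add_assoc,
      two_add_self, add_zero]
  refine ⟨LinearEquiv.ofInvolutive t htt, fun v => ?_⟩
  change _ = Q (t v)
  rw [ht, H66.quad_add, H66.quad_smul, hw, polar_smul_right, smul_eq_mul]
  generalize polar Q v w = a
  generalize Q v = b
  revert a b; decide

theorem sgn_eq_one_iff {a : ZMod 2} : H95.sgn a = 1 ↔ a = 0 := by revert a; decide

theorem gauss_ne_zero [Fintype V] {Q : QuadraticForm (ZMod 2) V}
    (hQ : (polarBilin Q).Nondegenerate) : H95.gauss Q ≠ 0 := by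
  obtain ⟨m, hm⟩ := H95.even_finrank hQ
  by_cases h : H66.IsPlusType Q
  · rw [H95.gauss_of_plus hQ hm h]; positivity
  · rw [H95.gauss_of_not_plus hQ hm h]; exact neg_ne_zero.2 (by positivity)

theorem translate_equiv_iff [Fintype V] {Q : QuadraticForm (ZMod 2) V}
    (hQ : (polarBilin Q).Nondegenerate) (w : V) :
    (∃ g : V ≃ₗ[ZMod 2] V, ∀ v, Q v + polar Q v w = Q (g v)) ↔ Q w = 0 := by
  refine ⟨fun ⟨g, hg⟩ => ?_, exists_equiv_translate Q⟩
  have h := H95.gauss_equiv g.toEquiv (f := fun v => Q v + polar Q v w) (g := Q)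
    fun v => (hg v).symm
  rw [gauss_translate] at h
  exact sgn_eq_one_iff.1 (mul_right_cancel₀ (gauss_ne_zero hQ) (h.trans (one_mul _).symm))

theorem nd_of_polar_eq {Q Q' : QuadraticForm (ZMod 2) V} (hQ : (polarBilin Q).Nondegenerate)
    (h : ∀ u v, polar Q' u v = polar Q u v) : (polarBilin Q').Nondegenerate := by
  have : polarBilin Q' = polarBilin Q := LinearMap.ext₂ h
  rwa [this]

/-- functions with the polarisation of `Q` are the translates of `Q`. -/
theorem exists_eq_translate [Finite V] {Q : QuadraticForm (ZMod 2) V}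
    (hQ : (polarBilin Q).Nondegenerate) (q : V → ZMod 2)
    (hq : ∀ u v, q (u + v) = q u + q v + (Q (u + v) - Q u - Q v)) :
    ∃ w, q = fun v => Q v + polar Q v w := by
  have h0 : q 0 = 0 := by
    have := hq 0 0
    simp only [add_zero, map_zero, sub_zero] at this
    linear_combination -this
  let l : V →ₗ[ZMod 2] ZMod 2 :=
    { toFun := fun v => q v - Q v
      map_add' := fun u v => by rw [hq]; ring
      map_smul' := fun a x => by
        rcases zmod2_cases' a with rfl | rfl
        · simp [h0]
        · simp }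
  obtain ⟨w, hw⟩ := (LinearMap.BilinForm.toDual (polarBilin Q) hQ).surjective l
  refine ⟨w, funext fun v => ?_⟩
  have : polar Q w v = q v - Q v := congrArg (fun f : Module.Dual (ZMod 2) V => f v) hw
  rw [polar_comm, this]; ring

theorem translate_polar (Q : QuadraticForm (ZMod 2) V) (w u v : V) :
    (Q (u + v) + polar Q (u + v) w) = (Q u + polar Q u w) + (Q v + polar Q v w) +
      (Q (u + v) - Q u - Q v) := by
  rw [polar_add_left]; ring

/-- translates of `Q` are parametrised by the vectors. -/
theorem natCard_polar_subtype [Finite V] {Q : QuadraticForm (ZMod 2) V}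
    (hQ : (polarBilin Q).Nondegenerate) (P : (V → ZMod 2) → Prop) :
    Nat.card {q : V → ZMod 2 // (∀ u v, q (u + v) = q u + q v + (Q (u + v) - Q u - Q v)) ∧ P q} =
      Nat.card {w : V // P fun v => Q v + polar Q v w} := by
  symm
  refine Nat.card_congr (Equiv.ofBijective
    (fun w => ⟨fun v => Q v + polar Q v w.1, translate_polar Q w.1, w.2⟩) ⟨?_, ?_⟩)
  · intro w w' h
    have h1 : ∀ v, polar Q v w.1 = polar Q v w'.1 := fun v =>
      add_left_cancel (congrFun (congrArg Subtype.val h) v)
    apply Subtype.ext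
    rw [← sub_eq_zero]
    refine (H66.nd_iff Q).1 hQ _ fun v => ?_
    rw [polar_comm, polar_sub_right, h1, sub_self]
  · rintro ⟨q, hq, hP⟩
    obtain ⟨w, rfl⟩ := exists_eq_translate hQ q hq
    exact ⟨⟨w, hP⟩, rfl⟩

end
end H65
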