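import Cfsg.Agent.Lib.MatConj.QuadTwo

/-! The fully deleted permutation module over `F₂` of a symmetric group of degree `4k+4`. -/

set_option autoImplicit false
open Cfsg Module QuadraticMap

namespace H65

theorem exists_hom_isometryGroup {F G X : Type*} {ι : Type} [Field F] [Group G] [AddCommGroup X]
    [Module F X] [Fintype ι] [DecidableEq ι] (q : (ι → F) → F) (Q : X → F) (Φ : (ι → F) ≃ₗ[F] X)
    (hΦ : ∀ x, Q (Φ x) = q x) (ρ : G →* Module.End F X) (hρ : ∀ g x, Q (ρ g x) = Q x)
    (hinj : Function.Injective ρ) :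
    ∃ φ : G →* isometryGroup F q, Function.Injective φ := by
  let ψ : G →* Matrix ι ι F := ((LinearMap.toMatrixAlgEquiv' (R := F) (n := ι)).toMonoidHom.comp
    (Φ.symm.conjRingEquiv : Module.End F X →* Module.End F (ι → F))).comp ρ
  have hψ : ∀ g v, Matrix.mulVec (ψ g) v = Φ.symm (ρ g (Φ v)) := fun g v => by
    change Matrix.mulVec (LinearMap.toMatrix' (Φ.symm.conj (ρ g))) v = _
    rw [← Matrix.toLin'_apply, Matrix.toLin'_toMatrix']
    simp
  refine ⟨ψ.toHomUnits.codRestrict _ fun g u _ => ?_, fun a b h => hinj ?_⟩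
  · change q (Matrix.mulVec (ψ g) u) = q u
    rw [hψ, ← hΦ, LinearEquiv.apply_symm_apply, hρ, hΦ]
  · have h1 : ψ a = ψ b := congrArg (fun x : isometryGroup F q => ((x : GL ι F) : Matrix ι ι F)) h
    ext x
    have := hψ a (Φ.symm x)
    rw [h1, hψ] at this
    simpa using this.symm

/-- the second elementary symmetric function as a quadratic form over `F₂`. -/
noncomputable def e2 (N : ℕ) : QuadraticForm (ZMod 2) (Fin N → ZMod 2) :=
  LinearMap.BilinMap.toQuadraticMap
    (Matrix.toBilin' (Matrix.of fun i j : Fin N => if i < j then (1 : ZMod 2) else 0))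

theorem e2_apply {N : ℕ} (v : Fin N → ZMod 2) :
    e2 N v = ∑ i, ∑ j, if i < j then v i * v j else 0 := by
  simp [e2, Matrix.toBilin'_apply]

theorem polar_e2 {N : ℕ} (u v : Fin N → ZMod 2) :
    polar (e2 N) u v = (∑ i, u i) * (∑ i, v i) + ∑ i, u i * v i := by
  rw [e2, LinearMap.BilinMap.polar_toQuadraticMap, Matrix.toBilin'_apply, Matrix.toBilin'_apply,
    Finset.sum_comm (f := fun i j => v i *
      Matrix.of (fun i j : Fin N => if i < j then (1 : ZMod 2) else 0) i j * u j),
    Finset.sum_mul_sum, ← Finset.sum_add_distrib, ← Finset.sum_add_distrib]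
  refine Finset.sum_congr rfl fun i _ => ?_
  have : u i * v i = ∑ j, if i = j then u i * v j else 0 := by simp
  rw [this, ← Finset.sum_add_distrib, ← Finset.sum_add_distrib]
  refine Finset.sum_congr rfl fun j _ => ?_
  rcases lt_trichotomy i j with h | rfl | h
  · simp [h, h.ne, h.not_gt]
  · simp [CharTwo.add_self_eq_zero]
  · simp [h, h.ne', h.not_gt, mul_comm]

theorem e2_single {N : ℕ} (i : Fin N) : e2 N (Pi.single i 1) = 0 := by
  rw [e2_apply]
  refine Finset.sum_eq_zero fun a _ => Finset.sum_eq_zero fun b _ => ?_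
  split_ifs with h
  · by_cases ha : a = i
    · subst ha; simp [h.ne']
    · simp [ha]
  · rfl

theorem e2_perm {N : ℕ} (σ : Equiv.Perm (Fin N)) (v : Fin N → ZMod 2) : e2 N (v ∘ σ) = e2 N v := by
  let l : (Fin N → ZMod 2) →ₗ[ZMod 2] ZMod 2 :=
    { toFun := fun v => e2 N (v ∘ σ) - e2 N v
      map_add' := fun u v => by
        rw [show (u + v) ∘ σ = u ∘ σ + v ∘ σ from rfl, H66.quad_add, H66.quad_add, polar_e2,
          polar_e2]
        simp only [Function.comp_apply]
        rw [Equiv.sum_comp σ u, Equiv.sum_comp σ v, Equiv.sum_comp σ fun i => u i * v i]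
        ring
      map_smul' := fun a x => by
        rcases zmod2_cases' a with rfl | rfl
        · simp
        · simp }
  have hl : l = 0 := by
    refine LinearMap.pi_ext fun i a => ?_
    rcases zmod2_cases' a with rfl | rfl
    · simp
    · change e2 N (Pi.single i 1 ∘ σ) - e2 N (Pi.single i 1) = 0
      have : (Pi.single i 1 : Fin N → ZMod 2) ∘ σ = Pi.single (σ.symm i) 1 := by
        ext j
        simp [Pi.single_apply, Equiv.eq_symm_apply]
      rw [this, e2_single, e2_single, sub_self]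
  exact sub_eq_zero.1 (congrArg (fun f : _ →ₗ[ZMod 2] ZMod 2 => f v) hl)

theorem e2_cons {N : ℕ} (a : ZMod 2) (x : Fin N → ZMod 2) :
    e2 (N + 1) (Fin.cons a x) = e2 N x + a * ∑ i, x i := by
  simp [e2_apply, Fin.sum_univ_succ, Finset.mul_sum, add_comm]

theorem gauss_e2_succ (N : ℕ) :
    H95.gauss (e2 (N + 1)) = H95.gauss (e2 N) + H95.gauss (fun x => e2 N x + ∑ i, x i) ∧
    H95.gauss (fun x => e2 (N + 1) x + ∑ i, x i) =
      H95.gauss (fun x => e2 N x + ∑ i, x i) - H95.gauss (e2 N) := by
  have hs : ∀ f : ZMod 2 → ℤ, ∑ a, f a = f 0 + f 1 := fun f => Fin.sum_univ_two f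
  constructor
  · rw [← H95.gauss_equiv (Fin.consEquiv fun _ => ZMod 2) (g := e2 (N + 1))
      (f := fun t => e2 N t.2 + t.1 * ∑ i, t.2 i) fun t => e2_cons t.1 t.2, H95.gauss,
      Fintype.sum_prod_type, hs]
    simp [H95.gauss]
  · rw [← H95.gauss_equiv (Fin.consEquiv fun _ => ZMod 2) (g := fun x => e2 (N + 1) x + ∑ i, x i)
      (f := fun t => e2 N t.2 + t.1 * ∑ i, t.2 i + (t.1 + ∑ i, t.2 i)) fun t => by
        rw [← e2_cons, Fin.sum_univ_succ]; rfl, H95.gauss, Fintype.sum_prod_type, hs]
    simp only [zero_mul, add_zero, zero_add, one_mul, H95.gauss, sub_eq_add_neg,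
      ← Finset.sum_neg_distrib]
    congr 1
    refine Finset.sum_congr rfl fun x _ => ?_
    generalize e2 N x = a
    generalize ∑ i, x i = b
    revert a b; decide

theorem gauss_e2 (k : ℕ) : H95.gauss (e2 (4 * k + 2)) = 2 * (-4) ^ k ∧
    H95.gauss (fun x => e2 (4 * k + 2) x + ∑ i, x i) = -2 * (-4) ^ k := by
  induction k with
  | zero =>
    have h0 : H95.gauss (e2 0) = 1 := by simp [H95.gauss, e2_apply, H95.sgn_zero]
    have h0' : H95.gauss (fun x => e2 0 x + ∑ i, x i) = 1 := by
      simp [H95.gauss, e2_apply, H95.sgn_zero]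
    have h1 := gauss_e2_succ 0
    have h2 := gauss_e2_succ 1
    simp only [h0, h0'] at h1
    rw [h1.1, h1.2] at h2
    simpa using h2
  | succ k ih =>
    have h1 := gauss_e2_succ (4 * k + 2)
    have h2 := gauss_e2_succ (4 * k + 2 + 1)
    have h3 := gauss_e2_succ (4 * k + 2 + 1 + 1)
    have h4 := gauss_e2_succ (4 * k + 2 + 1 + 1 + 1)
    rw [show 4 * (k + 1) + 2 = 4 * k + 2 + 1 + 1 + 1 + 1 by ring, h4.1, h4.2, h3.1, h3.2, h2.1, h2.2,
      h1.1, h1.2, ih.1, ih.2]
    constructor <;> ring

theorem e2_one (k : ℕ) : e2 (4 * k) 1 = 0 := by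
  have h : ∀ N, e2 (N + 1) 1 = e2 N 1 + N := fun N => by
    rw [show (1 : Fin (N + 1) → ZMod 2) = Fin.cons 1 1 by ext i; induction i using Fin.cases <;> rfl,
      e2_cons]
    simp
  induction k with
  | zero => simp [e2_apply]
  | succ k ih =>
    rw [show 4 * (k + 1) = 4 * k + 1 + 1 + 1 + 1 by ring, h, h, h, h, ih]
    push_cast
    generalize (k : ZMod 2) = a
    revert a; decide

/-- `Sym (4k+4)` acts faithfully on a nondegenerate quadratic space of dimension `4k+2`. -/
theorem exists_deleted_module (k : ℕ) (hk : 1 ≤ k) :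
    ∃ (Q : QuadraticForm (ZMod 2) (Fin (4 * k + 2) → ZMod 2))
      (ρ : Equiv.Perm (Fin (4 * k + 4)) →* Module.End (ZMod 2) (Fin (4 * k + 2) → ZMod 2)),
      (polarBilin Q).Nondegenerate ∧ H95.gauss Q = -2 * (-4) ^ k ∧ (∀ g x, Q (ρ g x) = Q x) ∧
        Function.Injective ρ := by
  let ι : (Fin (4 * k + 2) → ZMod 2) →ₗ[ZMod 2] (Fin (4 * k + 2 + 1 + 1) → ZMod 2) :=
    { toFun := fun x => Fin.cons 0 (Fin.cons (∑ i, x i) x)
      map_add' := fun x y => by
        ext i
        induction i using Fin.cases with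
        | zero => simp
        | succ i => induction i using Fin.cases <;> simp [Finset.sum_add_distrib]
      map_smul' := fun a y => by
        ext i
        induction i using Fin.cases with
        | zero => simp
        | succ i => induction i using Fin.cases <;> simp [Finset.mul_sum] }
  let π : (Fin (4 * k + 2 + 1 + 1) → ZMod 2) →ₗ[ZMod 2] (Fin (4 * k + 2) → ZMod 2) :=
    { toFun := fun v i => v i.succ.succ + v 0
      map_add' := fun x y => by ext i; simp; ring
      map_smul' := fun a y => by ext i; simp; ring }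
  have hιs : ∀ x, ∑ i, ι x i = 0 := fun x => by
    simp [ι, Fin.sum_univ_succ (n := 4 * k + 2 + 1), Fin.sum_univ_succ (n := 4 * k + 2),
      CharTwo.add_self_eq_zero]
  have hπι : ∀ x, π (ι x) = x := fun x => by ext i; simp [π, ι]
  have hπ1 : π 1 = 0 := by ext i; simp [π, CharTwo.add_self_eq_zero]
  have hιπ : ∀ v, ∑ i, v i = 0 → ι (π v) = v + v 0 • 1 := fun v hv => by
    ext i
    induction i using Fin.cases with
    | zero => simp [ι, CharTwo.add_self_eq_zero]
    | succ i =>
      induction i using Fin.cases with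
      | zero =>
        rw [Fin.sum_univ_succ, Fin.sum_univ_succ] at hv
        simp only [ι, π, LinearMap.coe_mk, AddHom.coe_mk, Fin.cons_succ, Fin.cons_zero,
          Finset.sum_add_distrib, Finset.sum_const, Finset.card_univ, Fintype.card_fin,
          nsmul_eq_mul, Pi.add_apply, Pi.smul_apply, Pi.one_apply, smul_eq_mul, mul_one]
        push_cast
        revert hv
        generalize ∑ i : Fin (4 * k + 2), v i.succ.succ = a
        generalize v 0 = b
        generalize v (Fin.succ 0) = c
        generalize (k : ZMod 2) = d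
        revert a b c d; decide
      | succ i => simp [ι, π]
  have he : ∀ v (c : ZMod 2), ∑ i, v i = 0 →
      e2 (4 * k + 2 + 1 + 1) (v + c • 1) = e2 (4 * k + 2 + 1 + 1) v := fun v c hv => by
    rw [H66.quad_add, H66.quad_smul, polar_smul_right, polar_e2]
    have := e2_one (k + 1)
    rw [show e2 (4 * k + 2 + 1 + 1) 1 = 0 from this]
    simp [hv]
  let P : Equiv.Perm (Fin (4 * k + 2 + 1 + 1)) → Module.End (ZMod 2) (Fin (4 * k + 2 + 1 + 1) → ZMod 2) :=
    fun σ => LinearMap.funLeft _ _ σ.symm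
  have hP : ∀ σ v, P σ v = v ∘ σ.symm := fun σ v => rfl
  have hPs : ∀ σ v, ∑ i, P σ v i = ∑ i, v i := fun σ v => Equiv.sum_comp σ.symm v
  have hP1 : ∀ σ, P σ 1 = 1 := fun σ => rfl
  have hQ : ∀ x, e2 _ (ι x) = e2 _ x + ∑ i, x i := fun x => by
    change e2 _ (Fin.cons 0 (Fin.cons (∑ i, x i) x)) = _
    rw [e2_cons, e2_cons]
    generalize ∑ i, x i = a
    generalize e2 _ x = b
    rw [zero_mul, add_zero]
    revert a b; decide
  refine ⟨(e2 _).comp ι,
    { toFun := fun σ => π ∘ₗ P σ ∘ₗ ι
      map_one' := LinearMap.ext hπι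
      map_mul' := fun σ τ => LinearMap.ext fun x => ?_ }, ?_, ?_, fun σ x => ?_, ?_⟩
  · change π (P σ (P τ (ι x))) = π (P σ (ι (π (P τ (ι x)))))
    rw [hιπ _ (by rw [hPs, hιs]), map_add, map_smul, hP1, map_add, map_smul, hπ1, smul_zero,
      add_zero]
  · rw [H66.nd_iff]
    intro x hx
    have h1 : ∀ i, x i = ∑ i, x i := fun i => by
      have h2 : polar (e2 (4 * k + 2)) x (Pi.single i 1) = 0 := by
        rw [← hx (Pi.single i 1)]
        simp only [polar, QuadraticMap.comp_apply, hQ, Pi.add_apply, Finset.sum_add_distrib]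
        ring
      rw [polar_e2] at h2
      simp [Pi.single_apply] at h2
      revert h2
      generalize ∑ i, x i = a
      generalize x i = b
      revert a b; decide
    have h2 : ∑ i, x i = 0 := by
      rw [Finset.sum_congr rfl fun i _ => h1 i]
      simp only [Finset.sum_const, Finset.card_univ, Fintype.card_fin, nsmul_eq_mul]
      push_cast
      generalize ∑ i, x i = a
      generalize (k : ZMod 2) = b
      revert a b; decide
    exact funext fun i => (h1 i).trans h2
  · rw [← (gauss_e2 k).2]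
    congr 1
    exact funext hQ
  · change e2 _ (ι (π (P σ (ι x)))) = e2 _ (ι x)
    rw [hιπ _ (by rw [hPs, hιs]), he _ _ (by rw [hPs, hιs]), hP, e2_perm]
  · rw [injective_iff_map_eq_one]
    intro σ hσ
    have h1 : ∀ v, ∑ i, v i = 0 → ∃ c : ZMod 2, P σ v = v + c • 1 := fun v hv => by
      have h2 : π (P σ (ι (π v))) = π v := congrArg (fun f : Module.End _ _ => f (π v)) hσ
      rw [hιπ v hv, map_add, map_smul, hP1, map_add, map_smul, hπ1, smul_zero, add_zero] at h2
      have h3 := hιπ (P σ v) (by rw [hPs, hv])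
      rw [h2, hιπ v hv] at h3
      exact ⟨v 0 - P σ v 0, by rw [sub_smul, ← add_sub_assoc, h3, add_sub_cancel_right]⟩
    have hex : ∀ s : Finset (Fin (4 * k + 2 + 1 + 1)), s.card ≤ 4 → ∃ x, x ∉ s := fun s hs => by
      by_contra h
      push Not at h
      have := Finset.card_le_card (show Finset.univ ⊆ s from fun x _ => h x)
      rw [Finset.card_univ, Fintype.card_fin] at this
      omega
    ext i
    by_contra hi
    have hi' : σ i ≠ i := fun h => hi (congrArg Fin.val h)
    obtain ⟨j, hj⟩ := hex {i, σ i} (Finset.card_le_two.trans (by norm_num))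
    obtain ⟨l, hl⟩ := hex {i, j, σ i, σ j} Finset.card_le_four
    simp only [Finset.mem_insert, Finset.mem_singleton, not_or] at hj hl
    obtain ⟨c, hc⟩ := h1 (Pi.single i 1 + Pi.single j 1) (by
      simp [Finset.sum_add_distrib, CharTwo.add_self_eq_zero])
    have h2 := congrFun hc l
    have h3 := congrFun hc (σ i)
    simp [hP, Equiv.symm_apply_eq, hl.1, hl.2.1, hl.2.2.1, hl.2.2.2] at h2
    simp [hP, hi', Ne.symm hj.1, Ne.symm hj.2, ← h2] at h3

end H65
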